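import Cfsg.Agent.H41.HeTC.Kw.RTab

set_option autoImplicit false
set_option linter.all false
set_option Elab.async false

namespace Cfsg.Agent.H41.HeP

open Cfsg.Agent.H35

theorem tkw_rchk_40 : allR tkw_rf 47743 9 (40 * 2 ^ 9) = true := by decide +kernel
theorem tkw_rchk_41 : allR tkw_rf 47743 9 (41 * 2 ^ 9) = true := by decide +kernel
theorem tkw_rchk_42 : allR tkw_rf 47743 9 (42 * 2 ^ 9) = true := by decide +kernel
theorem tkw_rchk_43 : allR tkw_rf 47743 9 (43 * 2 ^ 9) = true := by decide +kernel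
theorem tkw_rchk_44 : allR tkw_rf 47743 9 (44 * 2 ^ 9) = true := by decide +kernel
theorem tkw_rchk_45 : allR tkw_rf 47743 9 (45 * 2 ^ 9) = true := by decide +kernel
theorem tkw_rchk_46 : allR tkw_rf 47743 9 (46 * 2 ^ 9) = true := by decide +kernel
theorem tkw_rchk_47 : allR tkw_rf 47743 9 (47 * 2 ^ 9) = true := by decide +kernel
theorem tkw_rchk_48 : allR tkw_rf 47743 9 (48 * 2 ^ 9) = true := by decide +kernel
theorem tkw_rchk_49 : allR tkw_rf 47743 9 (49 * 2 ^ 9) = true := by decide +kernel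
theorem tkw_rchk_50 : allR tkw_rf 47743 9 (50 * 2 ^ 9) = true := by decide +kernel
theorem tkw_rchk_51 : allR tkw_rf 47743 9 (51 * 2 ^ 9) = true := by decide +kernel
theorem tkw_rchk_52 : allR tkw_rf 47743 9 (52 * 2 ^ 9) = true := by decide +kernel
theorem tkw_rchk_53 : allR tkw_rf 47743 9 (53 * 2 ^ 9) = true := by decide +kernel
theorem tkw_rchk_54 : allR tkw_rf 47743 9 (54 * 2 ^ 9) = true := by decide +kernel
theorem tkw_rchk_55 : allR tkw_rf 47743 9 (55 * 2 ^ 9) = true := by decide +kernel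
theorem tkw_rchk_56 : allR tkw_rf 47743 9 (56 * 2 ^ 9) = true := by decide +kernel
theorem tkw_rchk_57 : allR tkw_rf 47743 9 (57 * 2 ^ 9) = true := by decide +kernel
theorem tkw_rchk_58 : allR tkw_rf 47743 9 (58 * 2 ^ 9) = true := by decide +kernel
theorem tkw_rchk_59 : allR tkw_rf 47743 9 (59 * 2 ^ 9) = true := by decide +kernel

end Cfsg.Agent.H41.HeP
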