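import Cfsg.Agent.H41.HeTC.Kw.RChk0
import Cfsg.Agent.H41.HeTC.Kw.RChk1
import Cfsg.Agent.H41.HeTC.Kw.RChk2
import Cfsg.Agent.H41.HeTC.Kw.RChk3
import Cfsg.Agent.H41.HeTC.Kw.RChk4

set_option autoImplicit false
set_option linter.all false

namespace Cfsg.Agent.H41.HeP

open Cfsg.Agent.H35

theorem tkw_rall : ∀ p, p < 47743 → tkw_rf p = true := by
  apply allR_blocks tkw_rf 47743 9 94 _ (by decide)
  intro k hk
  interval_cases k
  · exact tkw_rchk_0
  · exact tkw_rchk_1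
  · exact tkw_rchk_2
  · exact tkw_rchk_3
  · exact tkw_rchk_4
  · exact tkw_rchk_5
  · exact tkw_rchk_6
  · exact tkw_rchk_7
  · exact tkw_rchk_8
  · exact tkw_rchk_9
  · exact tkw_rchk_10
  · exact tkw_rchk_11
  · exact tkw_rchk_12
  · exact tkw_rchk_13
  · exact tkw_rchk_14
  · exact tkw_rchk_15
  · exact tkw_rchk_16
  · exact tkw_rchk_17
  · exact tkw_rchk_18
  · exact tkw_rchk_19
  · exact tkw_rchk_20
  · exact tkw_rchk_21
  · exact tkw_rchk_22
  · exact tkw_rchk_23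
  · exact tkw_rchk_24
  · exact tkw_rchk_25
  · exact tkw_rchk_26
  · exact tkw_rchk_27
  · exact tkw_rchk_28
  · exact tkw_rchk_29
  · exact tkw_rchk_30
  · exact tkw_rchk_31
  · exact tkw_rchk_32
  · exact tkw_rchk_33
  · exact tkw_rchk_34
  · exact tkw_rchk_35
  · exact tkw_rchk_36
  · exact tkw_rchk_37
  · exact tkw_rchk_38
  · exact tkw_rchk_39
  · exact tkw_rchk_40
  · exact tkw_rchk_41
  · exact tkw_rchk_42
  · exact tkw_rchk_43
  · exact tkw_rchk_44
  · exact tkw_rchk_45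
  · exact tkw_rchk_46
  · exact tkw_rchk_47
  · exact tkw_rchk_48
  · exact tkw_rchk_49
  · exact tkw_rchk_50
  · exact tkw_rchk_51
  · exact tkw_rchk_52
  · exact tkw_rchk_53
  · exact tkw_rchk_54
  · exact tkw_rchk_55
  · exact tkw_rchk_56
  · exact tkw_rchk_57
  · exact tkw_rchk_58
  · exact tkw_rchk_59
  · exact tkw_rchk_60
  · exact tkw_rchk_61
  · exact tkw_rchk_62
  · exact tkw_rchk_63
  · exact tkw_rchk_64
  · exact tkw_rchk_65
  · exact tkw_rchk_66
  · exact tkw_rchk_67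
  · exact tkw_rchk_68
  · exact tkw_rchk_69
  · exact tkw_rchk_70
  · exact tkw_rchk_71
  · exact tkw_rchk_72
  · exact tkw_rchk_73
  · exact tkw_rchk_74
  · exact tkw_rchk_75
  · exact tkw_rchk_76
  · exact tkw_rchk_77
  · exact tkw_rchk_78
  · exact tkw_rchk_79
  · exact tkw_rchk_80
  · exact tkw_rchk_81
  · exact tkw_rchk_82
  · exact tkw_rchk_83
  · exact tkw_rchk_84
  · exact tkw_rchk_85
  · exact tkw_rchk_86
  · exact tkw_rchk_87
  · exact tkw_rchk_88
  · exact tkw_rchk_89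
  · exact tkw_rchk_90
  · exact tkw_rchk_91
  · exact tkw_rchk_92
  · exact tkw_rchk_93

theorem tkw_circ_ok : circChk (fullW kw_rws kw_prels) tkw_circT 0 tkw_ccert = true := by decide +kernel
theorem tkw_hc_ok : allR (fun c => hcChk tkw_rsw tkw_hc1T tkw_hc2T c) 4 2 0 = true := by decide +kernel
theorem tkw_h0 : RData.aord (tkw_rd.ent 0 1) = 0 := by decide +kernel

end Cfsg.Agent.H41.HeP
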